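import Mathlib
import Cfsg.Agent.Lib.Helper94.OMG.Defs
import Cfsg.Agent.Lib.Helper38.OPG.XL

/-!
# Project OMG (S2415), package [SHORT]

The short root elements `E(e_i, w)`, `E(f_i, w)` (`w` in the anisotropic plane) for all `i ≠ l`
give those for `i = l`: conjugation by the Levi image of a Weyl element of `SL_k`.
-/

set_option autoImplicit false
open scoped Matrix MatrixGroups

namespace Cfsg.Agent.Lib.Helper70.OMG

open Cfsg.Agent.Lib.Helper31.Siegel Cfsg.Agent.Lib.Helper32.OPG Cfsg.Agent.Lib.Helper64.OParM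
open Cfsg.Agent.Lib.Helper23.OHyp Cfsg.Agent.Lib.Helper94.OMG

universe u

variable {k : ℕ} {F : Type u} [Field F] {a b : F}

theorem sh_mat_mul (σ τ : ↥(Iso k F)) (v : Vec k F) :
    mat (σ * τ) *ᵥ v = mat σ *ᵥ (mat τ *ᵥ v) := by
  rw [Matrix.mulVec_mulVec]; rfl

theorem sh_Em_emb (σ : ↥(Iso k F)) (p : Vec k F) :
    matM (Em k F a b σ) *ᵥ (emb p : MI k → F) = emb (mat σ *ᵥ p) := by
  rw [matM_Em]
  unfold emb
  rw [Sum.elim_comp_inl, Sum.elim_comp_inr]

theorem sh_Em_isZ (σ : ↥(Iso k F)) (w : MI k → F) (hw : IsZ w) :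
    matM (Em k F a b σ) *ᵥ w = w := by
  rw [matM_Em]
  have h0 : w ∘ Sum.inl = 0 := by
    funext j
    exact hw j
  rw [h0, Matrix.mulVec_zero]
  funext j
  rcases j with j | t
  · exact (hw j).symm
  · rfl

/-- the Weyl element `t_{i,i0}(1) t_{i0,i}(-1) t_{i,i0}(1)` maps `e_{i0}` to `e_i` and
`f_{i0}` to `f_i`. -/
theorem sh_weyl (i i0 : Fin k) (h : i ≠ i0) :
    mat (L k F (Matrix.SpecialLinearGroup.transvection h 1) *
        L k F (Matrix.SpecialLinearGroup.transvection (Ne.symm h) (-1)) *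
        L k F (Matrix.SpecialLinearGroup.transvection h 1)) *ᵥ (E i0 : Vec k F) = E i ∧
    mat (L k F (Matrix.SpecialLinearGroup.transvection h 1) *
        L k F (Matrix.SpecialLinearGroup.transvection (Ne.symm h) (-1)) *
        L k F (Matrix.SpecialLinearGroup.transvection h 1)) *ᵥ (Fv i0 : Vec k F) = Fv i := by
  have h1 := Cfsg.Agent.Lib.Helper38.OPG.pkgXL k F i i0 h (1 : F)
  have h2 := Cfsg.Agent.Lib.Helper38.OPG.pkgXL k F i0 i (Ne.symm h) (-1 : F)
  have hne : ¬ i0 = i := fun e => h e.symm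
  constructor
  · rw [sh_mat_mul, sh_mat_mul, h1 (E i0), B_E_Fv, B_E_E]
    simp only [if_true, mul_one, one_smul, mul_zero, zero_smul, sub_zero]
    rw [h2 (E i0 + E i), B_add_left, B_add_left, B_E_Fv, B_E_Fv, B_E_E, B_E_E]
    simp only [hne, if_false, if_true, zero_add, add_zero, mul_one, mul_zero, zero_smul, sub_zero,
      neg_smul, one_smul]
    rw [show (E i0 : Vec k F) + E i + -E i0 = E i by abel]
    rw [h1 (E i), B_E_Fv, B_E_E]
    simp [h]
  · rw [sh_mat_mul, sh_mat_mul, h1 (Fv i0), B_Fv_Fv, B_Fv_E]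
    simp only [hne, if_false, mul_zero, zero_smul, sub_zero, add_zero]
    rw [h2 (Fv i0), B_Fv_Fv, B_Fv_E]
    simp only [if_true, mul_zero, zero_smul, add_zero, mul_one, neg_smul, one_smul, sub_neg_eq_add]
    rw [h1 (Fv i0 + Fv i), B_add_left, B_add_left, B_Fv_Fv, B_Fv_Fv, B_Fv_E, B_Fv_E]
    simp only [hne, if_false, if_true, zero_add, add_zero, mul_one, mul_zero, zero_smul, one_smul]
    abel

/-- **[SHORT]** -/
theorem pkgShort : PkgShort.{u} := by
  intro F _ _ k a b _ hk K hL l hyp i w hw σ hσ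
  by_cases hil : i = l
  swap
  · exact hyp i hil w hw σ hσ
  haveI : Nontrivial (Fin k) := Fin.nontrivial_iff_two_le.mpr hk
  obtain ⟨i0, hi0⟩ := exists_ne i
  have hi0l : i0 ≠ l := by rw [← hil]; exact hi0
  have hne : i ≠ i0 := Ne.symm hi0
  obtain ⟨hE, hF⟩ := sh_weyl (F := F) i i0 hne
  obtain ⟨γ, hγdef⟩ : ∃ γ : ↥(GM k F a b), γ = Em k F a b
      (L k F (Matrix.SpecialLinearGroup.transvection hne 1) *
        L k F (Matrix.SpecialLinearGroup.transvection (Ne.symm hne) (-1)) *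
        L k F (Matrix.SpecialLinearGroup.transvection hne 1)) := ⟨_, rfl⟩
  have hγK : γ ∈ K := by
    rw [hγdef, map_mul, map_mul]
    exact K.mul_mem (K.mul_mem (hL _) (hL _)) (hL _)
  have hγe : matM γ *ᵥ (eM i0 : MI k → F) = eM i := by
    rw [hγdef, ← emb_E, sh_Em_emb, hE, emb_E]
  have hγf : matM γ *ᵥ (fM i0 : MI k → F) = fM i := by
    rw [hγdef, ← emb_Fv, sh_Em_emb, hF, emb_Fv]
  have hγw : matM γ *ᵥ w = w := by
    rw [hγdef]; exact sh_Em_isZ _ w hw
  have h3 : matM γ⁻¹ *ᵥ w = w := by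
    have e := invM_act γ w
    rwa [hγw] at e
  have key : σ = γ * (γ⁻¹ * σ * γ) * γ⁻¹ := by group
  rw [key]
  apply K.mul_mem (K.mul_mem hγK ?_) (K.inv_mem hγK)
  apply hyp i0 hi0l w hw
  rcases hσ with hσ | hσ
  · left
    intro x
    have h1 : BM k a b (eM i) (matM γ *ᵥ x) = BM k a b (eM i0) x := by
      have e := BM_act γ (eM i0) x
      rwa [hγe] at e
    have h2 : BM k a b w (matM γ *ᵥ x) = BM k a b w x := by
      have e := BM_act γ w x
      rwa [hγw] at e
    have h4 : matM γ⁻¹ *ᵥ (eM i : MI k → F) = eM i0 := by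
      have e := invM_act γ (eM i0 : MI k → F)
      rwa [hγe] at e
    rw [mulM_act, mulM_act, hσ (matM γ *ᵥ x), h1, h2, Matrix.mulVec_sub, Matrix.mulVec_add,
      Matrix.mulVec_smul, Matrix.mulVec_smul, invM_act, h3, h4]
  · right
    intro x
    have h1 : BM k a b (fM i) (matM γ *ᵥ x) = BM k a b (fM i0) x := by
      have e := BM_act γ (fM i0) x
      rwa [hγf] at e
    have h2 : BM k a b w (matM γ *ᵥ x) = BM k a b w x := by
      have e := BM_act γ w x
      rwa [hγw] at e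
    have h4 : matM γ⁻¹ *ᵥ (fM i : MI k → F) = fM i0 := by
      have e := invM_act γ (fM i0 : MI k → F)
      rwa [hγf] at e
    rw [mulM_act, mulM_act, hσ (matM γ *ᵥ x), h1, h2, Matrix.mulVec_sub, Matrix.mulVec_add,
      Matrix.mulVec_smul, Matrix.mulVec_smul, invM_act, h3, h4]

end Cfsg.Agent.Lib.Helper70.OMG
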